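import Cfsg.Agent.Lib.Schur.U62.Rels
import Cfsg.Agent.Lib.Schur.U62.S1.Main
import Cfsg.Agent.Lib.Schur.U62.S2.Main
import Cfsg.Agent.Lib.Schur.U62.S3.Main
import Cfsg.Agent.Lib.Schur.U62.S4.Main
import Cfsg.Agent.Lib.Schur.U62.S5.Main
import Cfsg.Agent.Lib.Schur.U62.S6.Main
import Cfsg.Agent.Lib.Schur.U62.S7.Main
import Cfsg.Agent.Lib.Schur.U62.S8.Main

/-!
# The order of the presented group: a chain of coset enumerations
-/

set_option autoImplicit false
set_option maxRecDepth 100000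

namespace Cfsg.Agent.Lib.Schur.U62.Bound

open Cfsg.Agent.Lib.TC.Core Cfsg.Agent.Lib.TC.Enc Cfsg.Agent.Lib.TC.Pres Cfsg.Agent.Lib.TC.Perm
  Cfsg.Agent.Lib.TC.Main Cfsg.Agent.Lib.TC.Chain
open Cfsg.Agent.Lib.Schur.U62 Cfsg.Agent.Lib.Schur.U62.Rels

theorem st (ls ls' : List Nat) (inv' : Nat → Nat) (rels' subs' : List (List Nat))
    (wit : Nat → Nat × Nat × Bool) (C : Cert) (m : Nat) (hls : ∀ c ∈ ls, c < 8) (hk : C.k = ls.length)
    (hchk : chkStage (fun c => c) relsU ls ls' inv' rels' subs' = true)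
    (h1 : chkRelRots C inv' rels' wit = true) (h2 : chkSubRots C subs' = true)
    (hC : Checked C) (hm : C.countRoots C.N = m) :
    Lt xU ls' ≤ Lt xU ls ∧ Nat.card (Lt xU ls) = Nat.card (Lt xU ls') * (Lt xU ls').relIndex (Lt xU ls) ∧
      (Lt xU ls').relIndex (Lt xU ls) ≠ 0 ∧ (Lt xU ls').relIndex (Lt xU ls) ≤ m := by
  have := stage_spec xU (fun c => c) relsU ls ls' inv' rels' subs' wit C
    (fun c hc => hinv0 c (hls c hc)) hrel0 hk hchk h1 h2 hC
  rwa [hm] at this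

theorem top : Lt xU S1.Tab.ls = ⊤ := by
  apply mem_of_letters
  intro c hc
  refine Subgroup.subset_closure ⟨c, ?_, rfl⟩
  revert c
  decide +kernel

/-- The bound. -/
theorem bound : Nat.card U ≠ 0 ∧ Nat.card U ≤ 110361968640 := by
  have b0 := bound_nil xU
  have b8 := bound_up (st _ [] S8.Tab.inv' S8.Tab.rels' S8.Tab.subs' S8.Tab.witT.get S8.Tab.cert 2
    (by decide) S8.Main.hk (by decide +kernel) S8.Main.h1 S8.Main.h2 S8.Main.hchecked S8.Main.hcount) b0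
  have b7 := bound_up (st _ _ S7.Tab.inv' S7.Tab.rels' S7.Tab.subs' S7.Tab.witT.get S7.Tab.cert 3
    (by decide) S7.Main.hk (by decide +kernel) S7.Main.h1 S7.Main.h2 S7.Main.hchecked S7.Main.hcount) b8
  have b6 := bound_up (st _ _ S6.Tab.inv' S6.Tab.rels' S6.Tab.subs' S6.Tab.witT.get S6.Tab.cert 4
    (by decide) S6.Main.hk (by decide +kernel) S6.Main.h1 S6.Main.h2 S6.Main.hchecked S6.Main.hcount) b7
  have b5 := bound_up (st _ _ S5.Tab.inv' S5.Tab.rels' S5.Tab.subs' S5.Tab.witT.get S5.Tab.cert 5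
    (by decide) S5.Main.hk (by decide +kernel) S5.Main.h1 S5.Main.h2 S5.Main.hchecked S5.Main.hcount) b6
  have b4 := bound_up (st _ _ S4.Tab.inv' S4.Tab.rels' S4.Tab.subs' S4.Tab.witT.get S4.Tab.cert 16
    (by decide) S4.Main.hk (by decide +kernel) S4.Main.h1 S4.Main.h2 S4.Main.hchecked S4.Main.hcount) b5
  have b3 := bound_up (st _ _ S3.Tab.inv' S3.Tab.rels' S3.Tab.subs' S3.Tab.witT.get S3.Tab.cert 27
    (by decide) S3.Main.hk (by decide +kernel) S3.Main.h1 S3.Main.h2 S3.Main.hchecked S3.Main.hcount) b4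
  have b2 := bound_up (st _ _ S2.Tab.inv' S2.Tab.rels' S2.Tab.subs' S2.Tab.witT.get S2.Tab.cert 56
    (by decide) S2.Main.hk (by decide +kernel) S2.Main.h1 S2.Main.h2 S2.Main.hchecked S2.Main.hcount) b3
  have b1 := bound_up (st _ _ S1.Tab.inv' S1.Tab.rels' S1.Tab.subs' S1.Tab.witT.get S1.Tab.cert 38016
    (by decide) S1.Main.hk (by decide +kernel) S1.Main.h1 S1.Main.h2 S1.Main.hchecked S1.Main.hcount) b2
  rw [top, Subgroup.card_top] at b1
  exact ⟨b1.1, b1.2.trans (by norm_num)⟩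

end Cfsg.Agent.Lib.Schur.U62.Bound
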