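import Mathlib

/-!
# Lifts of involutions to central extensions: the commuting and the braid relations
-/

set_option autoImplicit false

namespace Cfsg.Agent.Lib.Schur.U62.Lift

section generic

variable {Γ T : Type*} [Group Γ] [Group T] {σ : Γ →* T}

/-- A commutator with `Z`, central. -/
theorem comm_of_line (hc : ∀ a, σ a = 1 → ∀ b, a * b = b * a)
    {X Z G2 G3 G4 G5 : Γ}
    (h1 : σ X * σ Z = σ Z * σ X) (hsq : σ X * σ X = 1)
    (hg2 : σ G2 * σ Z = σ Z * σ G2) (hg3 : σ G3 * σ Z = σ Z * σ G3)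
    (hg4 : σ G4 * σ Z = σ Z * σ G4) (hg5 : σ G5 * σ Z = σ Z * σ G5)
    (hprod : σ (X * (G2 * X * G2⁻¹) * (G3 * X * G3⁻¹) * (G4 * X * G4⁻¹) * (G5 * X * G5⁻¹)) = 1) :
    X * Z = Z * X := by
  let C : Γ → Γ := fun a => a * Z * a⁻¹ * Z⁻¹
  have hσ : ∀ a, σ a * σ Z = σ Z * σ a → σ (C a) = 1 := by
    intro a ha
    simp only [C, map_mul, map_inv, ha, mul_inv_cancel_right, mul_inv_cancel]
  have hcen : ∀ a, σ a * σ Z = σ Z * σ a → ∀ b, C a * b = b * C a := fun a ha => hc _ (hσ a ha)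
  have hmul : ∀ a b, σ a * σ Z = σ Z * σ a → σ b * σ Z = σ Z * σ b → C (a * b) = C a * C b := by
    intro a b ha hb
    have e1 : C (a * b) = a * (C b * Z) * a⁻¹ * Z⁻¹ := by
      simp only [C]
      group
    rw [e1]
    have e2 : a * (C b * Z) * a⁻¹ * Z⁻¹ = (a * C b) * (Z * a⁻¹ * Z⁻¹) := by group
    have e3 : C b * a * (Z * a⁻¹ * Z⁻¹) = C b * C a := by
      simp only [C]
      group
    rw [e2, ← hcen b hb a, e3, hcen a ha (C b)]
  have hm : ∀ a, σ a * σ Z = σ Z * σ a → σ a⁻¹ * σ Z = σ Z * σ a⁻¹ := by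
    intro a ha
    rw [map_inv]
    calc (σ a)⁻¹ * σ Z = (σ a)⁻¹ * (σ Z * σ a) * (σ a)⁻¹ := by group
      _ = (σ a)⁻¹ * (σ a * σ Z) * (σ a)⁻¹ := by rw [ha]
      _ = σ Z * (σ a)⁻¹ := by group
  have hmm : ∀ a b, σ a * σ Z = σ Z * σ a → σ b * σ Z = σ Z * σ b → σ (a * b) * σ Z = σ Z * σ (a * b) := by
    intro a b ha hb
    rw [map_mul, mul_assoc, hb, ← mul_assoc, ha, mul_assoc]
  have hone : C 1 = 1 := by simp [C]
  have hinv : ∀ a, σ a * σ Z = σ Z * σ a → C a⁻¹ = (C a)⁻¹ := by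
    intro a ha
    have h2 := hmul a a⁻¹ ha (hm a ha)
    rw [mul_inv_cancel, hone] at h2
    exact eq_inv_of_mul_eq_one_right h2.symm
  have hconj : ∀ g, σ g * σ Z = σ Z * σ g → C (g * X * g⁻¹) = C X := by
    intro g hg
    rw [hmul _ _ (hmm _ _ hg h1) (hm g hg), hmul _ _ hg h1, hinv g hg, mul_assoc, hcen X h1, ← mul_assoc,
      mul_inv_cancel, one_mul]
  have hc1 : ∀ g, σ g * σ Z = σ Z * σ g → σ (g * X * g⁻¹) * σ Z = σ Z * σ (g * X * g⁻¹) := fun g hg =>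
    hmm _ _ (hmm _ _ hg h1) (hm g hg)
  set c := C X with hcdef
  -- the square
  have h2 : c * c = 1 := by
    have h3 := hmul X X h1 h1
    have h4 : σ (X * X) = 1 := by rw [map_mul, hsq]
    have h5 : C (X * X) = 1 := by
      simp only [C]
      rw [hc _ h4 Z]
      group
    rw [← h3, h5]
  -- the product
  have h5 : c * c * c * c * c = 1 := by
    have h6 : C (X * (G2 * X * G2⁻¹) * (G3 * X * G3⁻¹) * (G4 * X * G4⁻¹) * (G5 * X * G5⁻¹)) = 1 := by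
      simp only [C]
      rw [hc _ hprod Z]
      group
    rw [hmul _ _ (hmm _ _ (hmm _ _ (hmm _ _ h1 (hc1 _ hg2)) (hc1 _ hg3)) (hc1 _ hg4)) (hc1 _ hg5),
      hmul _ _ (hmm _ _ (hmm _ _ h1 (hc1 _ hg2)) (hc1 _ hg3)) (hc1 _ hg4),
      hmul _ _ (hmm _ _ h1 (hc1 _ hg2)) (hc1 _ hg3),
      hmul _ _ h1 (hc1 _ hg2), hconj _ hg2, hconj _ hg3, hconj _ hg4, hconj _ hg5] at h6
    exact h6
  have h6 : c = 1 := by
    have h7 : c * c * c * c * c = c := by
      rw [h2, one_mul, h2, one_mul]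
    rw [← h7, h5]
  have h7 : X * Z * X⁻¹ * Z⁻¹ = 1 := h6
  have h8 : X * Z * X⁻¹ = Z := mul_inv_eq_one.1 h7
  exact mul_inv_eq_iff_eq_mul.1 h8

/-- The braid relation from a conjugation. -/
theorem braid_of_conj (hc : ∀ a, σ a = 1 → ∀ b, a * b = b * a) {P b a : Γ}
    (h1 : P = a * b * a⁻¹) (h2 : σ (a * a) = 1) (h3 : σ (b * P * a) = σ P) :
    b * P * b = P * b * P := by
  have h4 : σ (P⁻¹ * (b * P * a)) = 1 := by rw [map_mul, h3, map_inv, inv_mul_cancel]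
  set κ := P⁻¹ * (b * P * a) with hκ
  have hcκ := hc κ h4
  have h5 : b * P * a = P * κ := by rw [hκ]; group
  have h6 : (b * P * a) * P * (b * P * a)⁻¹ = P := by
    rw [h5, mul_assoc P κ P, hcκ P]
    group
  have h7 : a * P * a⁻¹ = b := by
    have h8 : a * P * a⁻¹ = (a * a) * b * (a * a)⁻¹ := by
      rw [h1]
      group
    rw [h8, hc _ h2 b]
    group
  have h9 : (b * P * a) * P * (b * P * a)⁻¹ = b * P * (a * P * a⁻¹) * P⁻¹ * b⁻¹ := by group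
  rw [h9, h7] at h6
  have h10 : b * P * b * P⁻¹ = P * b := mul_inv_eq_iff_eq_mul.1 h6
  have h11 : b * P * b = P * b * P := mul_inv_eq_iff_eq_mul.1 h10
  exact h11

end generic

end Cfsg.Agent.Lib.Schur.U62.Lift
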