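import Cfsg.Agent.Lib.TC.SubGen

/-!
# A presentation of the full covering group of `PSU₆(2)`

Eight letters (transvections), the Coxeter relations of their diagram (a hexagon with two tails) and one more
relator: the product of the five transvections of a totally isotropic line.
-/

set_option autoImplicit false

namespace Cfsg.Agent.Lib.Schur.U62.Rels

open Cfsg.Agent.Lib.TC.Core Cfsg.Agent.Lib.TC.Enc Cfsg.Agent.Lib.TC.Pres Cfsg.Agent.Lib.TC.Perm Cfsg.Agent.Lib.TC.Main
  Cfsg.Agent.Lib.TC.Chain Cfsg.Agent.Lib.TC.SubPres Cfsg.Agent.Lib.TC.Iso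

set_option maxRecDepth 100000

/-- The commuting pairs of letters. -/
def commP : List (Nat × Nat) :=
  [(2,0),(3,0),(3,1),(4,0),(4,1),(4,2),(5,0),(5,2),(5,3),(5,4),(6,0),(6,1),(6,2),(6,3),(6,4),(7,0),(7,1),(7,2),(7,4),
    (7,5)]

/-- The pairs of letters with product of order three. -/
def braidP : List (Nat × Nat) := [(1,0),(2,1),(3,2),(4,3),(5,1),(6,5),(7,3),(7,6)]

/-- The words of the five transvections of a line. -/
def Yw : List (List Nat) :=
  [[7,6,3,2,1,5,4,3,2,1,0,1,2,3,4,5,1,2,3,6,7],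
   [5,6,1,5,2,1,0,1,2,5,1,6,5],
   [6],
   [3,4,2,3,7,6,1,2,3,7,4,3,2,1,0,1,2,3,4,7,3,2,1,6,7,3,2,4,3],
   [4]]

/-- The word of the line. -/
def lineW : List Nat := Yw.flatten

/-- The relators. -/
def relsU : List (List Nat) :=
  (List.range 8).map (fun a => [a, a]) ++ commP.map (fun p => [p.1, p.2, p.1, p.2]) ++
    braidP.map (fun p => [p.1, p.2, p.1, p.2, p.1, p.2]) ++ [lineW]

/-- The columns. -/
abbrev Ku : Cols (Fin 8) := K 8

/-- The relators of the presented group. -/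
abbrev Ru : Set (FreeGroup (Fin 8)) := R 8 relsU

/-- The group. -/
abbrev U : Type := PresentedGroup Ru

/-- The letters. -/
noncomputable abbrev xU : Nat → U := Ku.E Ru

theorem hk : ∀ l ∈ relsU, ∀ z ∈ l, z < 8 := by decide +kernel

theorem hsq : ∀ c, c < 8 → [c, c] ∈ relsU := by decide +kernel

theorem hv : Ku.Valid (R := Ru) := valid 8 relsU hsq

theorem hrelsp : ∀ l ∈ relsU, ∃ L, FreeGroup.mk L ∈ Ru ∧ l = Ku.word L := Cfsg.Agent.Lib.TC.SubPres.hrels 8 relsU hk

theorem hrel0 : ∀ l ∈ relsU, prodA xU l = 1 := rel_prodA_one hv hrelsp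

theorem hinv0 : ∀ c, c < 8 → xU c = (xU c)⁻¹ := fun c hc => (Cols.E_inv hv c hc).2

/-- A homomorphism out of the group. -/
theorem exists_hom {Q : Type*} [Group Q] (F : Nat → Q) (hrel : ∀ l ∈ relsU, prodA F l = 1) :
    ∃ ψ : U →* Q, ∀ c, c < 8 → ψ (xU c) = F c := by
  refine exists_hom_of_letters hv (Cfsg.Agent.Lib.TC.SubPres.hR 8 relsU hk) F ?_ hrel
  intro c hc
  have hc' : c < 8 := hc
  show F c = (F c)⁻¹
  apply eq_inv_of_mul_eq_one_left
  have := hrel [c, c] (hsq c hc')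
  simpa using this

/-- Two subgroups: the letters generate. -/
theorem mem_of_letters {H : Subgroup U} (h : ∀ c, c < 8 → xU c ∈ H) : H = ⊤ := by
  rw [eq_top_iff, ← Cols.closure_E hv, Subgroup.closure_le]
  rintro _ ⟨c, hc, rfl⟩
  exact h c hc

end Cfsg.Agent.Lib.Schur.U62.Rels
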