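import Cfsg.Agent.Lib.TC.D.Fi22U.Tgt
import Cfsg.Agent.Lib.Schur.U62.Rels
import Cfsg.Agent.Lib.Schur.U62.Lift

/-!
# Letters with the relations of the presented group in every central extension of `PSU₆(2)`

The transvections of `SU₆(2)` lift to elements of a central extension of `PSU₆(2)`.  Lifts of
perpendicular transvections commute (the relation among the five transvections of a line gives a
commutator of order dividing two and five); conjugate lifts of the letters satisfy the braid relations,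
and a central correction gives the relator of the line.
-/

set_option autoImplicit false
set_option maxRecDepth 100000

namespace Cfsg.Agent.Lib.Schur.U62.Exists

open Cfsg.Agent.Lib.TC.Core Cfsg.Agent.Lib.TC.Main
open Cfsg.Agent.Lib.TC.D.Fi22U.Tgt Cfsg.Agent.Lib.ThreeT.U6Lift Cfsg Cfsg.Agent.Lib.PrimeGraph.G24Field
open Cfsg.Agent.Lib.Schur.U62 Cfsg.Agent.Lib.Schur.U62.Rels Cfsg.Agent.Lib.Schur.U62.Lift
open scoped Matrix

local notation "B" => hermForm 6 K4 2

/-- The transvection in the simple group. -/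
noncomputable def tau (v : Fin 6 → K4) : T := QuotientGroup.mk (tv v)

section lifts

variable {Γ : Type*} [Group Γ] {σ : Γ →* T}

theorem exists_conj (hs : Function.Surjective σ) {X Z : Γ} (hX : σ X = tau b₀) (hZ : σ Z = tau q₀)
    {a' : Fin 6 → K4} (haa : B a' a' = 0) (haq : B a' q₀ = 0) (hli : LinearIndependent K4 ![a', q₀]) :
    ∃ G : Γ, σ G * σ Z = σ Z * σ G ∧ σ (G * X * G⁻¹) = tau a' := by
  obtain ⟨g, hg⟩ := exists_trans ![(b₀ : Fin 6 → K4), q₀] ![a', q₀] li_b₀_q₀ hli (by
      intro i j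
      have hqa := B_zero_symm haq
      have hb := B_zero_symm (B_b₀_q₀ (K := K4))
      fin_cases i <;> fin_cases j <;> simp [B_b₀_b₀, B_b₀_q₀, B_q₀_q₀, haa, haq, hqa, hb])
    (by
      intro i
      fin_cases i <;> simp [b₀, q₀])
  have hg0 : act g b₀ = a' := hg 0
  have hg1 : act g q₀ = q₀ := hg 1
  obtain ⟨G, hG⟩ := hs (QuotientGroup.mk g)
  refine ⟨G, ?_, ?_⟩
  · rw [hG, hZ]
    have h1 := tv_conj g (B_q₀_q₀ (K := K4))
    rw [hg1] at h1
    have h2 : g * tv q₀ = tv q₀ * g := mul_inv_eq_iff_eq_mul.1 h1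
    exact congrArg (QuotientGroup.mk (s := Subgroup.center SU6)) h2
  · have h1 := tv_conj g (B_b₀_b₀ (K := K4))
    rw [hg0] at h1
    rw [map_mul, map_mul, map_inv, hG, hX]
    show (QuotientGroup.mk (g * tv b₀ * g⁻¹) : T) = tau a'
    rw [h1]
    rfl

theorem comm_base (hs : Function.Surjective σ) (hc : ∀ a, σ a = 1 → ∀ b, a * b = b * a) {X Z : Γ}
    (hX : σ X = tau b₀) (hZ : σ Z = tau q₀) : X * Z = Z * X := by
  obtain ⟨ω, hω⟩ := Cfsg.Agent.S0819.exists_omega (hK4.out)
  have hba₀ := B_zero_symm (B_a₀_b₀ (K := K4))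
  have hqb := B_zero_symm (B_b₀_q₀ (K := K4))
  have hH : ∀ c : K4, ∃ G : Γ, σ G * σ Z = σ Z * σ G ∧ σ (G * X * G⁻¹) = tau (a₀ + c • b₀) := by
    intro c
    refine exists_conj hs hX hZ ?_ ?_ ?_
    · simp only [B_add_left, B_add_right, B_smul_left, B_smul_right, B_a₀_a₀, B_b₀_b₀, B_a₀_b₀, hba₀, mul_zero,
        add_zero]
    · simp only [B_add_left, B_smul_left, B_a₀_q₀, B_b₀_q₀, mul_zero, add_zero]
    · rw [LinearIndependent.pair_iff]
      intro s' t' h
      have h2 := congrFun h 2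
      have h4 := congrFun h 4
      simp [a₀, b₀, q₀] at h2 h4
      exact ⟨h2, h4⟩
  obtain ⟨G2, h21, h22⟩ := hH 0
  obtain ⟨G3, h31, h32⟩ := hH 1
  obtain ⟨G4, h41, h42⟩ := hH ω
  obtain ⟨G5, h51, h52⟩ := hH (ω ^ 2)
  rw [zero_smul, add_zero] at h22
  rw [one_smul] at h32
  have hfive := five (B_a₀_a₀ (K := K4)) (B_b₀_b₀ (K := K4)) (B_a₀_b₀ (K := K4)) hω
  refine comm_of_line hc ?_ ?_ h21 h31 h41 h51 ?_
  · rw [hX, hZ]
    have := tv_comm (B_b₀_b₀ (K := K4)) (B_q₀_q₀ (K := K4)) (B_b₀_q₀ (K := K4))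
    exact congrArg (QuotientGroup.mk (s := Subgroup.center SU6)) this
  · rw [hX]
    exact congrArg (QuotientGroup.mk (s := Subgroup.center SU6)) (tv_sq (B_b₀_b₀ (K := K4)))
  · rw [map_mul, map_mul, map_mul, map_mul, h22, h32, h42, h52, hX]
    exact congrArg (QuotientGroup.mk (s := Subgroup.center SU6)) hfive

/-- Lifts of perpendicular transvections commute. -/
theorem comm_lift (hs : Function.Surjective σ) (hc : ∀ a, σ a = 1 → ∀ b, a * b = b * a)
    {v' w' : Fin 6 → K4} (hv : B v' v' = 0) (hw : B w' w' = 0) (hvw : B v' w' = 0)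
    {X Z : Γ} (hX : σ X = tau v') (hZ : σ Z = tau w') : X * Z = Z * X := by
  have hof : ∀ {X' Z' : Γ}, σ X' = σ Z' → X' * Z' = Z' * X' := by
    intro X' Z' h
    have h1 : σ (X'⁻¹ * Z') = 1 := by simp [h]
    have h2 := hc _ h1 X'
    obtain ⟨a, ha⟩ : ∃ a, a = X'⁻¹ * Z' := ⟨_, rfl⟩
    have h3 : Z' = X' * a := by rw [ha]; group
    rw [← ha] at h2
    rw [h3, mul_assoc, ← h2]
  have hone : ∀ {X' : Γ}, σ X' = tau 0 → ∀ Z', X' * Z' = Z' * X' := by
    intro X' h Z'
    refine hc _ ?_ Z'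
    rw [h, tau, tv_zero]
    rfl
  by_cases hli : LinearIndependent K4 ![v', w']
  · obtain ⟨g, hg⟩ := exists_trans ![(b₀ : Fin 6 → K4), q₀] ![v', w'] li_b₀_q₀ hli
      (by
        intro i j
        have hwv := B_zero_symm hvw
        have hb := B_zero_symm (B_b₀_q₀ (K := K4))
        fin_cases i <;> fin_cases j <;> simp [B_b₀_b₀, B_b₀_q₀, B_q₀_q₀, hv, hw, hvw, hwv, hb])
      (by
        intro i
        fin_cases i <;> simp [b₀, q₀])
    have hg0 : act g b₀ = v' := hg 0
    have hg1 : act g q₀ = w' := hg 1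
    obtain ⟨G, hG⟩ := hs (QuotientGroup.mk g)
    have h1 : σ (G⁻¹ * X * G) = tau b₀ := by
      have h3 := tv_conj g⁻¹ hv
      rw [inv_inv, ← hg0, act_inv_act, hg0] at h3
      rw [map_mul, map_mul, map_inv, hG, hX]
      show (QuotientGroup.mk (g⁻¹ * tv v' * g) : T) = _
      rw [h3]
      rfl
    have h2 : σ (G⁻¹ * Z * G) = tau q₀ := by
      have h3 := tv_conj g⁻¹ hw
      rw [inv_inv, ← hg1, act_inv_act, hg1] at h3
      rw [map_mul, map_mul, map_inv, hG, hZ]
      show (QuotientGroup.mk (g⁻¹ * tv w' * g) : T) = _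
      rw [h3]
      rfl
    have h3 := comm_base hs hc h1 h2
    have h4 : G⁻¹ * (X * Z) * G = G⁻¹ * (Z * X) * G := by
      calc G⁻¹ * (X * Z) * G = (G⁻¹ * X * G) * (G⁻¹ * Z * G) := by group
        _ = (G⁻¹ * Z * G) * (G⁻¹ * X * G) := h3
        _ = _ := by group
    exact mul_left_cancel (mul_right_cancel h4)
  · rw [LinearIndependent.pair_iff] at hli
    push Not at hli
    obtain ⟨s', t', hst, hne⟩ := hli
    by_cases ht : t' = 0
    · have hs0 : s' ≠ 0 := fun hs' => hne hs' ht
      rw [ht, zero_smul, add_zero] at hst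
      have hv0 : v' = 0 := (smul_eq_zero.1 hst).resolve_left hs0
      rw [hv0] at hX
      exact hone hX Z
    · by_cases hs0 : s' = 0
      · rw [hs0, zero_smul, zero_add] at hst
        have hw0 : w' = 0 := (smul_eq_zero.1 hst).resolve_left ht
        rw [hw0] at hZ
        exact (hone hZ X).symm
      · have hw'' : w' = (t'⁻¹ * s') • v' := by
          have h3 : t' • w' = s' • v' := by
            funext i
            have := congrFun hst i
            simp only [Pi.add_apply, Pi.smul_apply, smul_eq_mul, Pi.zero_apply] at this ⊢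
            linear_combination this - (s' * v' i) * two_zero (K := K4)
          rw [mul_smul, ← h3, smul_smul, inv_mul_cancel₀ ht, one_smul]
        have h3 : tv w' = tv v' := by
          rw [hw'', tv_smul hv (mul_ne_zero (inv_ne_zero ht) hs0)]
        exact hof (by rw [hX, hZ, tau, tau, h3])

end lifts

/-! The letters. -/

theorem t_eq (c : Nat) : t c = tau (vv c) := rfl

theorem t_sq {c : Nat} (hc : c < 8) : t c * t c = 1 :=
  congrArg (QuotientGroup.mk (s := Subgroup.center SU6)) (tv_sq (vv_iso c hc))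

theorem t_one {l : List Nat} (hl : ∀ z ∈ l, z < 8) (h : scal (RW l)) : prodA t l = 1 := by
  rw [prodA_t]
  apply (QuotientGroup.eq_one_iff _).2
  apply mem_center_of_scal
  rw [prodA_gS l hl]
  exact h

theorem prodA_rev {G : Type*} [Group G] (E : Nat → G) (n : Nat) (hE : ∀ c, c < n → E c * E c = 1)
    (l : List Nat) (hl : ∀ z ∈ l, z < n) : prodA E l.reverse = (prodA E l)⁻¹ := by
  induction l with
  | nil => simp
  | cons z l ih =>
    rw [List.reverse_cons, prodA_append, ih (fun y hy => hl y (by simp [hy])), prodA_cons, prodA_cons, prodA_nil,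
      one_mul, _root_.mul_inv_rev, inv_eq_of_mul_eq_one_left (hE z (hl z (by simp)))]

/-- The words of the conjugating elements. -/
def Gw (c : Nat) : List Nat :=
  ([[], [0,1,0], [1,2,1,0,1,0], [2,3,2,1,2,1,0,1,0], [3,4,3,2,3,2,1,2,1,0,1,0], [1,5,1,0,1,0], [5,6,5,1,5,1,0,1,0],
    [3,7,3,2,3,2,1,2,1,0,1,0]] : List (List Nat)).getD c []

/-- The parents of the letters. -/
def parX (c : Nat) : Nat := [0, 0, 1, 2, 3, 1, 5, 3].getD c 0

theorem Gw_lt : ∀ c, c < 8 → ∀ z ∈ Gw c, z < 8 := by decide +kernel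

theorem Gw_zero : Gw 0 = [] := rfl

theorem Gw_par : ∀ c, c < 8 → 0 < c → Gw c = [parX c, c, parX c] ++ Gw (parX c) ∧ parX c < 8 := by decide +kernel

theorem chkX : ∀ c, c < 8 → scal (RW (c :: (Gw c ++ 0 :: (Gw c).reverse))) := by decide +kernel

/-- The word of the element between the two ends of the last edge. -/
def hw : List Nat := (Gw 7).reverse ++ [6, 7, 6] ++ Gw 6

/-- A transvection of a number. -/
noncomputable def Tm (n : Nat) : M6 := unitaryTransvection 6 2 (dec n) 1

theorem hw_lt : ∀ z ∈ hw, z < 8 := by decide +kernel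

theorem chkH : hermForm 6 K4 2 (dec 1401) (dec 1401) = 0 ∧ hermForm 6 K4 2 (dec 3961) (dec 3961) = 0 ∧
    hermForm 6 K4 2 (dec 1401) (vv 0) = 0 ∧ hermForm 6 K4 2 (dec 3961) (vv 0) = 0 ∧
    scal (RW hw * unitaryTransvection 6 2 (dec 3961) 1 * unitaryTransvection 6 2 (dec 1401) 1) := by decide +kernel

/-- The vectors of the transvections on a line. -/
def yc : List Nat := [3620, 401, 4021, 1705, 2189]

/-- The word of a transvection on the line. -/
def Yi (i : Nat) : List Nat := Yw.getD i []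

/-- The vector of a transvection on the line. -/
def yv (i : Nat) : Fin 6 → K4 := dec (yc.getD i 0)

theorem chkY : ∀ i, i < 5 → (∀ z ∈ Yi i, z < 8) ∧ (Yi i).reverse = Yi i ∧ hermForm 6 K4 2 (yv i) (yv i) = 0 ∧
    RW (Yi i) = unitaryTransvection 6 2 (yv i) 1 := by decide +kernel

theorem chkYY : ∀ i, i < 5 → ∀ j, j < 5 → hermForm 6 K4 2 (yv i) (yv j) = 0 := by decide +kernel

theorem lineW_eq : lineW = Yi 0 ++ Yi 1 ++ Yi 2 ++ Yi 3 ++ Yi 4 := by decide +kernel

theorem line_lt : ∀ z ∈ lineW, z < 8 := by decide +kernel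

theorem line_scal : scal (RW lineW) := by decide +kernel

theorem Yi_len : (Yi 0).length = 21 ∧ (Yi 1).length = 13 ∧ (Yi 2).length = 1 ∧ (Yi 3).length = 29 ∧ (Yi 4).length = 1 := by
  decide +kernel

theorem lineW_len : lineW.length = 65 := by decide +kernel

theorem commP_chk : ∀ p ∈ commP, p.1 < 8 ∧ p.2 < 8 ∧ hermForm 6 K4 2 (vv p.1) (vv p.2) = 0 := by decide +kernel

theorem braidP_chk : ∀ p ∈ braidP, p.1 < 8 ∧ p.2 < 8 ∧ (p = (7, 6) ∨ (0 < p.1 ∧ parX p.1 = p.2)) := by decide +kernel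

section main

variable {Γ : Type*} [Group Γ] {σ : Γ →* T}

/-- Squares along a word and its reverse. -/
theorem prodA_mul_rev (x : Nat → Γ) (cc : Γ) (hcc : ∀ b, cc * b = b * cc) (n : Nat)
    (hx : ∀ c, c < n → x c * x c = cc) (l : List Nat) (hl : ∀ z ∈ l, z < n) :
    prodA x l * prodA x l.reverse = cc ^ l.length := by
  induction l with
  | nil => simp
  | cons z l ih =>
    rw [List.reverse_cons, prodA_append, prodA_cons, prodA_cons, prodA_nil, one_mul, List.length_cons, pow_succ]
    have h1 := ih (fun y hy => hl y (by simp [hy]))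
    calc prodA x l * x z * (x z * prodA x l.reverse) = prodA x l * (x z * x z) * prodA x l.reverse := by group
      _ = prodA x l * cc * prodA x l.reverse := by rw [hx z (hl z (by simp))]
      _ = (prodA x l * prodA x l.reverse) * cc := by rw [mul_assoc, hcc, ← mul_assoc]
      _ = _ := by rw [h1]

/-- The central twist along a word. -/
theorem prodA_twist (x : Nat → Γ) (κ : Γ) (hκ : ∀ b, κ * b = b * κ) (l : List Nat) :
    prodA (fun c => x c * κ) l = prodA x l * κ ^ l.length := by
  induction l with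
  | nil => simp
  | cons z l ih =>
    rw [prodA_cons, prodA_cons, ih, List.length_cons, pow_succ]
    have h1 : ∀ (m : Nat) b, κ ^ m * b = b * κ ^ m := by
      intro m b
      exact ((Commute.pow_left (show Commute κ b from hκ b) m))
    calc prodA x l * κ ^ l.length * (x z * κ) = prodA x l * (κ ^ l.length * x z) * κ := by group
      _ = prodA x l * (x z * κ ^ l.length) * κ := by rw [h1]
      _ = _ := by group

variable (hs : Function.Surjective σ) (hc : ∀ a, σ a = 1 → ∀ b, a * b = b * a)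

include hs hc

/-- The letters with the relations. -/
theorem exists_lifts : ∃ x' : Nat → Γ, (∀ c, c < 8 → σ (x' c) = t c) ∧ ∀ l ∈ relsU, prodA x' l = 1 := by
  classical
  -- lifts of the letters
  choose s hs' using fun c => hs (t c)
  obtain ⟨P, hP⟩ : ∃ P : Nat → Γ, ∀ c, P c = prodA s (Gw c) := ⟨_, fun _ => rfl⟩
  obtain ⟨x, hx⟩ : ∃ x : Nat → Γ, ∀ c, x c = (P c)⁻¹ * s 0 * P c := ⟨_, fun _ => rfl⟩
  have hσs : ∀ l : List Nat, σ (prodA s l) = prodA t l := by
    intro l
    induction l with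
    | nil => simp
    | cons z l ih => rw [prodA_cons, prodA_cons, map_mul, ih, hs']
  have hσP : ∀ c, σ (P c) = prodA t (Gw c) := fun c => by rw [hP]; exact hσs _
  have hσx : ∀ c, c < 8 → σ (x c) = t c := by
    intro c hc8
    have h1 := t_one (l := c :: (Gw c ++ 0 :: (Gw c).reverse))
      (by
        intro z hz
        have hG := Gw_lt c hc8
        simp only [List.mem_cons, List.mem_append, List.mem_reverse] at hz
        rcases hz with rfl | hz | rfl | hz
        · exact hc8
        · exact hG z hz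
        · decide
        · exact hG z hz) (chkX c hc8)
    rw [prodA_cons, prodA_append, prodA_cons, prodA_rev t 8 (fun c hc => t_sq hc) _ (Gw_lt c hc8)] at h1
    have h2 : (prodA t (Gw c))⁻¹ * t 0 * prodA t (Gw c) = (t c)⁻¹ := eq_inv_of_mul_eq_one_left h1
    rw [hx, map_mul, map_mul, map_inv, hσP, hs', h2]
    exact inv_eq_of_mul_eq_one_left (t_sq hc8)
  have hσxt : ∀ l : List Nat, (∀ z ∈ l, z < 8) → σ (prodA x l) = prodA t l := fun l hl =>
    map_prodA σ x t 8 hσx l hl
  -- the square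
  set cc : Γ := s 0 * s 0 with hcc
  have hσcc : σ cc = 1 := by
    rw [hcc, map_mul, hs', t_sq (by decide)]
  have hccen : ∀ b, cc * b = b * cc := hc cc hσcc
  have hxx : ∀ c, x c * x c = cc := by
    intro c
    calc x c * x c = (P c)⁻¹ * (s 0 * s 0) * P c := by rw [hx]; group
      _ = (P c)⁻¹ * (cc * P c) := by rw [← hcc, mul_assoc]
      _ = cc := by rw [hccen]; group
  have hcpow : ∀ (m : Nat) b, cc ^ m * b = b * cc ^ m := fun m b => Commute.pow_left (show Commute cc b from hccen b) m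
  -- commuting letters
  have hcomm : ∀ p ∈ commP, x p.1 * x p.2 = x p.2 * x p.1 := by
    intro p hp
    obtain ⟨h1, h2, h3⟩ := commP_chk p hp
    exact comm_lift hs hc (vv_iso _ h1) (vv_iso _ h2) h3 (hσx _ h1) (hσx _ h2)
  -- the edges
  have hedge : ∀ c p, c < 8 → p < 8 → x p = (s p * s c * s p) * x c * (s p * s c * s p)⁻¹ →
      x c * x p * x c = x p * x c * x p := by
    intro c p hc8 hp8 h
    refine braid_of_conj hc h ?_ ?_
    · have h1 := t_sq hc8
      have h2 := t_sq hp8
      rw [map_mul, map_mul, map_mul, hs', hs']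
      calc t p * t c * t p * (t p * t c * t p) = t p * t c * (t p * t p) * t c * t p := by group
        _ = t p * (t c * t c) * t p := by rw [h2]; group
        _ = 1 := by rw [h1, mul_one, h2]
    · have h1 := t_sq hc8
      have h2 := t_sq hp8
      rw [map_mul, map_mul, map_mul, map_mul, hs', hs', hσx c hc8, hσx p hp8]
      calc t c * t p * (t p * t c * t p) = t c * (t p * t p) * t c * t p := by group
        _ = (t c * t c) * t p := by rw [h2]; group
        _ = t p := by rw [h1, one_mul]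
  have htree : ∀ c, c < 8 → 0 < c → x c * x (parX c) * x c = x (parX c) * x c * x (parX c) := by
    intro c hc8 hc0
    obtain ⟨h1, h2⟩ := Gw_par c hc8 hc0
    refine hedge c _ hc8 h2 ?_
    have h3 : P c = P (parX c) * (s (parX c) * s c * s (parX c)) := by
      rw [hP, hP, h1, prodA_append]
      simp [mul_assoc]
    rw [hx c, hx (parX c), h3]
    group
  have hlast : x 7 * x 6 * x 7 = x 6 * x 7 * x 6 := by
    obtain ⟨h1, h2, h3, h4, h5⟩ := chkH
    refine hedge 7 6 (by decide) (by decide) ?_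
    set a := s 6 * s 7 * s 6 with ha
    set h := P 6 * a * (P 7)⁻¹ with hh
    rw [hx 6]
    have hσh : σ h = prodA t hw := by
      rw [hw, prodA_append, prodA_append, prodA_rev t 8 (fun c hc => t_sq hc) _ (Gw_lt 7 (by decide))]
      rw [hh, ha, map_mul, map_mul, map_inv, hσP, hσP, map_mul, map_mul, hs', hs']
      simp [mul_assoc]
    have hsq1 : tv (dec 1401) * tv (dec 1401) = 1 := tv_sq h1
    have hsq2 : tv (dec 3961) * tv (dec 3961) = 1 := tv_sq h2
    have hprod : prodA t hw = tau (dec 1401) * tau (dec 3961) := by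
      rw [prodA_t]
      have hm : (prodA gS hw * tv (dec 3961) * tv (dec 1401)) ∈ Subgroup.center SU6 := by
        apply mem_center_of_scal
        have e1 : ((prodA gS hw * tv (dec 3961) * tv (dec 1401) : SU6).1.1 : M6) =
            RW hw * unitaryTransvection 6 2 (dec 3961) 1 * unitaryTransvection 6 2 (dec 1401) 1 := by
          rw [← prodA_gS hw hw_lt]
          have e2 : ((tv (dec 3961) : SU6).1.1 : M6) = unitaryTransvection 6 2 (dec 3961) 1 := by
            rw [tv, dif_pos h2]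
          have e3 : ((tv (dec 1401) : SU6).1.1 : M6) = unitaryTransvection 6 2 (dec 1401) 1 := by
            rw [tv, dif_pos h1]
          rw [← e2, ← e3]
          rfl
        rw [e1]
        exact h5
      have hm2 := (QuotientGroup.eq_one_iff _).2 hm
      have hm3 : (QuotientGroup.mk (prodA gS hw) : T) * tau (dec 3961) * tau (dec 1401) = 1 := hm2
      have h13 : tau (dec 1401) * tau (dec 1401) = 1 :=
        congrArg (QuotientGroup.mk (s := Subgroup.center SU6)) hsq1
      have h39 : tau (dec 3961) * tau (dec 3961) = 1 :=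
        congrArg (QuotientGroup.mk (s := Subgroup.center SU6)) hsq2
      calc (QuotientGroup.mk (prodA gS hw) : T)
          = ((QuotientGroup.mk (prodA gS hw) : T) * tau (dec 3961) * tau (dec 1401)) * tau (dec 1401) *
              tau (dec 3961) := by
            rw [mul_assoc _ (tau (dec 1401)) (tau (dec 1401)), h13, mul_one, mul_assoc, h39, mul_one]
        _ = _ := by rw [hm3, one_mul]
    obtain ⟨A, hA⟩ := hs (tau (dec 1401))
    obtain ⟨C, hC⟩ := hs (tau (dec 3961))
    have hAs : A * s 0 = s 0 * A := comm_lift hs hc h1 (vv_iso 0 (by decide)) h3 hA (hs' 0)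
    have hCs : C * s 0 = s 0 * C := comm_lift hs hc h2 (vv_iso 0 (by decide)) h4 hC (hs' 0)
    have hz : σ ((A * C)⁻¹ * h) = 1 := by
      rw [map_mul, map_inv, map_mul, hA, hC, hσh, hprod, inv_mul_cancel]
    have hhs : h * s 0 = s 0 * h := by
      obtain ⟨z, hzdef⟩ : ∃ z, z = (A * C)⁻¹ * h := ⟨_, rfl⟩
      rw [← hzdef] at hz
      have e1 : h = A * C * z := by rw [hzdef]; group
      rw [e1]
      calc A * C * z * s 0 = A * C * (s 0 * z) := by rw [mul_assoc, hc z hz]
        _ = A * (C * s 0) * z := by group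
        _ = A * (s 0 * C) * z := by rw [hCs]
        _ = (A * s 0) * C * z := by group
        _ = (s 0 * A) * C * z := by rw [hAs]
        _ = _ := by group
    have e2 : a * (P 7)⁻¹ = (P 6)⁻¹ * h := by rw [hh]; group
    have e3 : a * x 7 * a⁻¹ = (a * (P 7)⁻¹) * s 0 * (a * (P 7)⁻¹)⁻¹ := by
      rw [hx 7]
      group
    rw [e3, e2]
    have e4 : (P 6)⁻¹ * h * s 0 * ((P 6)⁻¹ * h)⁻¹ = (P 6)⁻¹ * (h * s 0 * h⁻¹) * P 6 := by group
    rw [e4, hhs, mul_inv_cancel_right]
  have hbraid : ∀ p ∈ braidP, x p.1 * x p.2 * x p.1 = x p.2 * x p.1 * x p.2 := by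
    intro p hp
    obtain ⟨h1, h2, h3⟩ := braidP_chk p hp
    rcases h3 with rfl | ⟨h3, h4⟩
    · exact hlast
    · rw [← h4]
      exact htree _ h1 h3
  -- the line
  have hyv : ∀ i, i < 5 → σ (prodA x (Yi i)) = tau (yv i) := by
    intro i hi
    obtain ⟨h1, h2, h3, h4⟩ := chkY i hi
    rw [hσxt _ h1, prodA_t]
    have e1 : prodA gS (Yi i) = tv (yv i) := by
      apply Subtype.ext
      apply Subtype.ext
      rw [prodA_gS _ h1, h4, tv, dif_pos h3]
    rw [e1]
    rfl
  have hyc : ∀ i, i < 5 → ∀ j, j < 5 → Commute (prodA x (Yi i)) (prodA x (Yi j)) := by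
    intro i hi j hj
    exact comm_lift hs hc (chkY i hi).2.2.1 (chkY j hj).2.2.1 (chkYY i hi j hj) (hyv i hi) (hyv j hj)
  have hyy : ∀ i, i < 5 → prodA x (Yi i) * prodA x (Yi i) = cc ^ (Yi i).length := by
    intro i hi
    obtain ⟨h1, h2, -, -⟩ := chkY i hi
    have h3 := prodA_mul_rev x cc hccen 8 (fun c _ => hxx c) _ h1
    rwa [h2] at h3
  set ℓ := prodA x lineW with hℓ
  have hσℓ : σ ℓ = 1 := by
    rw [hℓ, hσxt _ line_lt]
    exact t_one line_lt line_scal
  have hℓcen : ∀ b, ℓ * b = b * ℓ := hc ℓ hσℓ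
  have hℓℓ : ℓ * ℓ = cc ^ 65 := by
    have e1 : ℓ = prodA x (Yi 4) * prodA x (Yi 3) * prodA x (Yi 2) * prodA x (Yi 1) * prodA x (Yi 0) := by
      rw [hℓ, lineW_eq, prodA_append, prodA_append, prodA_append, prodA_append]
      simp only [mul_assoc]
    obtain ⟨y4, hy4⟩ : ∃ y, y = prodA x (Yi 4) := ⟨_, rfl⟩
    obtain ⟨y3, hy3⟩ : ∃ y, y = prodA x (Yi 3) := ⟨_, rfl⟩
    obtain ⟨y2, hy2⟩ : ∃ y, y = prodA x (Yi 2) := ⟨_, rfl⟩
    obtain ⟨y1, hy1⟩ : ∃ y, y = prodA x (Yi 1) := ⟨_, rfl⟩
    obtain ⟨y0, hy0⟩ : ∃ y, y = prodA x (Yi 0) := ⟨_, rfl⟩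
    rw [← hy4, ← hy3, ← hy2, ← hy1, ← hy0] at e1
    have c43 : Commute y3 y4 := by rw [hy3, hy4]; exact hyc 3 (by decide) 4 (by decide)
    have c42 : Commute y2 y4 := by rw [hy2, hy4]; exact hyc 2 (by decide) 4 (by decide)
    have c41 : Commute y1 y4 := by rw [hy1, hy4]; exact hyc 1 (by decide) 4 (by decide)
    have c40 : Commute y0 y4 := by rw [hy0, hy4]; exact hyc 0 (by decide) 4 (by decide)
    have c32 : Commute y2 y3 := by rw [hy2, hy3]; exact hyc 2 (by decide) 3 (by decide)
    have c31 : Commute y1 y3 := by rw [hy1, hy3]; exact hyc 1 (by decide) 3 (by decide)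
    have c30 : Commute y0 y3 := by rw [hy0, hy3]; exact hyc 0 (by decide) 3 (by decide)
    have c21 : Commute y1 y2 := by rw [hy1, hy2]; exact hyc 1 (by decide) 2 (by decide)
    have c20 : Commute y0 y2 := by rw [hy0, hy2]; exact hyc 0 (by decide) 2 (by decide)
    have c10 : Commute y0 y1 := by rw [hy0, hy1]; exact hyc 0 (by decide) 1 (by decide)
    have hsq : ∀ {A b : Γ}, Commute b A → A * b * (A * b) = (A * A) * (b * b) := by
      intro A b h
      exact h.mul_mul_mul_comm A b
    obtain ⟨l0, l1, l2, l3, l4⟩ := Yi_len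
    rw [e1, hsq (((c40.mul_right c30).mul_right c20).mul_right c10),
      hsq ((c41.mul_right c31).mul_right c21), hsq (c42.mul_right c32), hsq c43]
    rw [hy4, hyy 4 (by decide), hy3, hyy 3 (by decide), hy2, hyy 2 (by decide), hy1, hyy 1 (by decide), hy0,
      hyy 0 (by decide), l0, l1, l2, l3, l4, ← pow_add, ← pow_add, ← pow_add, ← pow_add]
  -- the twist
  set κ : Γ := ℓ⁻¹ * cc ^ 32 with hκ
  have hσκ : σ κ = 1 := by
    rw [hκ, map_mul, map_inv, hσℓ, map_pow, hσcc]
    simp
  have hκcen : ∀ b, κ * b = b * κ := hc κ hσκ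
  have hℓcc : Commute ℓ⁻¹ (cc ^ 32) := (show Commute ℓ (cc ^ 32) from hℓcen _).inv_left
  have hκκ : κ * κ = cc⁻¹ := by
    rw [hκ, hℓcc.symm.mul_mul_mul_comm, ← _root_.mul_inv_rev, hℓℓ, ← pow_add]
    calc (cc ^ 65)⁻¹ * cc ^ (32 + 32) = (cc * cc ^ 64)⁻¹ * cc ^ 64 := by
          rw [← pow_succ']
      _ = cc⁻¹ := by group
  have hκ65 : κ ^ 65 = ℓ⁻¹ := by
    have e1 : κ ^ 65 = (κ * κ) ^ 32 * κ := by
      rw [← pow_two, ← pow_mul, ← pow_succ]
    rw [e1, hκκ, hκ, inv_pow, ← mul_assoc]
    rw [(show Commute (cc ^ 32)⁻¹ ℓ⁻¹ from ((show Commute ℓ (cc ^ 32) from hℓcen _).symm.inv_left.inv_right)).eq]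
    group
  refine ⟨fun c => x c * κ, ?_, ?_⟩
  · intro c hc8
    simp only [map_mul, hσx c hc8, hσκ, mul_one]
  · intro l hl
    rw [prodA_twist x κ hκcen]
    simp only [relsU, List.mem_append, List.mem_map, List.mem_range, List.mem_singleton] at hl
    rcases hl with ((⟨a, -, rfl⟩ | ⟨p, hp, rfl⟩) | ⟨p, hp, rfl⟩) | rfl
    · simp only [prodA_cons, prodA_nil, one_mul, List.length_cons, List.length_nil]
      rw [hxx, pow_two, hκκ, mul_inv_cancel]
    · simp only [prodA_cons, prodA_nil, one_mul, List.length_cons, List.length_nil]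
      have h1 := hcomm p hp
      have e1 : x p.2 * x p.1 * x p.2 * x p.1 = cc * cc := by
        rw [← h1]
        calc x p.1 * x p.2 * x p.2 * x p.1 = x p.1 * (x p.2 * x p.2) * x p.1 := by group
          _ = x p.1 * cc * x p.1 := by rw [hxx]
          _ = x p.1 * x p.1 * cc := by rw [mul_assoc, hccen, mul_assoc]
          _ = cc * cc := by rw [hxx]
      have e2 : κ ^ 4 = cc⁻¹ * cc⁻¹ := by
        rw [← hκκ]
        simp only [pow_succ, pow_zero, one_mul, mul_assoc]
      rw [show (0 + 1 + 1 + 1 + 1) = 4 from rfl, e1, e2]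
      group
    · simp only [prodA_cons, prodA_nil, one_mul, List.length_cons, List.length_nil]
      have h1 := hbraid p hp
      obtain ⟨c, d⟩ := p
      simp only at h1 ⊢
      have e1 : x d * x c * x d * x c * x d * x c = cc * cc * cc := by
        calc x d * x c * x d * x c * x d * x c = x d * x c * (x d * x c * x d) * x c := by group
          _ = x d * x c * (x c * x d * x c) * x c := by rw [h1]
          _ = x d * (x c * x c) * x d * (x c * x c) := by group
          _ = x d * cc * x d * cc := by rw [hxx]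
          _ = (x d * x d) * cc * cc := by rw [mul_assoc (x d) cc, hccen, mul_assoc (x d) (x d)]
          _ = _ := by rw [hxx]
      have e2 : κ ^ 6 = cc⁻¹ * cc⁻¹ * cc⁻¹ := by
        rw [← hκκ]
        simp only [pow_succ, pow_zero, one_mul, mul_assoc]
      rw [show (0 + 1 + 1 + 1 + 1 + 1 + 1) = 6 from rfl, e1, e2]
      group
    · rw [lineW_len, hκ65, mul_inv_cancel]

end main

end Cfsg.Agent.Lib.Schur.U62.Exists
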