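import Cfsg.Agent.Lib.TC.D.Fi22U.Tgt
import Cfsg.Agent.Lib.Schur.U62.Bound
import Cfsg.Agent.Lib.Schur.U62.Exists
import Cfsg.Prelude.Def_KGroupFacts

/-!
# The presented group is a stem extension of `PSU₆(2)` with kernel `C₃ × C₂ × C₂`

The kernel has order at most twelve by the coset enumerations; three maps separate twelve central elements:
to `SU₆(2)`, to `Fi₂₂` (the double cover of `PSU₆(2)` inside `Fi₂₂`), and to `Fi₂₂` again after an outer
automorphism of order three.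
-/

set_option autoImplicit false
set_option maxRecDepth 100000

namespace Cfsg.Agent.Lib.Schur.U62.Model

open Cfsg.Agent.Lib.TC.Core Cfsg.Agent.Lib.TC.Pres Cfsg.Agent.Lib.TC.Main Cfsg.Agent.Lib.TC.Chain
  Cfsg.Agent.Lib.TC.Iso Cfsg.Agent.Lib.TC.D.Fi22U.Wd
  Cfsg.Agent.Lib.TC.G.Fi22 Cfsg.Agent.Lib.TC.D.Fi22b.Tab Cfsg.Agent.Lib.TC.D.Fi22U.Tgt
  Cfsg.Agent.Lib.TC.Chain.PermLev Cfsg Cfsg.Agent.Lib.PrimeGraph.G24Field
open Cfsg.Agent.Lib.Schur.U62 Cfsg.Agent.Lib.Schur.U62.Rels Cfsg.Agent.Lib.Schur.U62.Exists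
open scoped commutatorElement

section generic

variable {G : Type*} [Group G] {Y1 Y2 Y3 : Type*} [Group Y1] [Group Y2] [Group Y3]

/-- Twelve elements in a normal subgroup of order at most twelve, separated by three homomorphisms. -/
theorem equiv_of_three (Z : Subgroup G) [hZ : Z.Normal] (p1 : G →* Y1) (p2 : G →* Y2) (p3 : G →* Y3) {a b c : G}
    (ha : a ∈ Z) (hb : b ∈ Z) (hc : c ∈ Z) (h0 : Nat.card Z ≠ 0) (h12 : Nat.card Z ≤ 12) {A1 : Y1} {A2 : Y2} {A3 : Y3}
    (h1a : p1 a = A1) (h1b : p1 b = 1) (h1c : p1 c = 1)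
    (h2a : p2 a = 1) (h2b : p2 b = A2) (h2c : p2 c = 1)
    (h3a : p3 a = 1) (h3b : p3 b = 1) (h3c : p3 c = A3)
    (o1 : orderOf A1 = 3) (o2 : orderOf A2 = 2) (o3 : orderOf A3 = 2)
    (c1 : ∀ u, A1 * p1 u = p1 u * A1) (c2 : ∀ u, A2 * p2 u = p2 u * A2) (c3 : ∀ u, A3 * p3 u = p3 u * A3) :
    Z ≤ Subgroup.center G ∧ Nonempty (Multiplicative (ZMod 3 × ZMod 2 × ZMod 2) ≃* Z) := by
  classical
  let g0 : ZMod 3 × ZMod 2 × ZMod 2 → G := fun u => a ^ u.1.val * b ^ u.2.1.val * c ^ u.2.2.val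
  have hg0 : ∀ u, g0 u ∈ Z := fun u => Z.mul_mem (Z.mul_mem (Z.pow_mem ha _) (Z.pow_mem hb _)) (Z.pow_mem hc _)
  have p1g : ∀ u, p1 (g0 u) = A1 ^ u.1.val := by
    intro u
    simp [g0, h1a, h1b, h1c]
  have p2g : ∀ u, p2 (g0 u) = A2 ^ u.2.1.val := by
    intro u
    simp [g0, h2a, h2b, h2c]
  have p3g : ∀ u, p3 (g0 u) = A3 ^ u.2.2.val := by
    intro u
    simp [g0, h3a, h3b, h3c]
  have hsep : ∀ u u', p1 (g0 u) = p1 (g0 u') → p2 (g0 u) = p2 (g0 u') → p3 (g0 u) = p3 (g0 u') → u = u' := by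
    rintro ⟨i, j, k⟩ ⟨i', j', k'⟩ h1 h2 h3
    rw [p1g, p1g] at h1
    rw [p2g, p2g] at h2
    rw [p3g, p3g] at h3
    have e1 : i.val = i'.val := pow_injOn_Iio_orderOf (x := A1) (by rw [Set.mem_Iio, o1]; exact ZMod.val_lt i)
      (by rw [Set.mem_Iio, o1]; exact ZMod.val_lt i') h1
    have e2 : j.val = j'.val := pow_injOn_Iio_orderOf (x := A2) (by rw [Set.mem_Iio, o2]; exact ZMod.val_lt j)
      (by rw [Set.mem_Iio, o2]; exact ZMod.val_lt j') h2
    have e3 : k.val = k'.val := pow_injOn_Iio_orderOf (x := A3) (by rw [Set.mem_Iio, o3]; exact ZMod.val_lt k)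
      (by rw [Set.mem_Iio, o3]; exact ZMod.val_lt k') h3
    simp only [Prod.mk.injEq]
    exact ⟨ZMod.val_injective _ e1, ZMod.val_injective _ e2, ZMod.val_injective _ e3⟩
  have : Finite Z := Nat.finite_of_card_ne_zero h0
  let g1 : ZMod 3 × ZMod 2 × ZMod 2 → Z := fun u => ⟨g0 u, hg0 u⟩
  have hinj : Function.Injective g1 := by
    intro u u' h
    have h' : g0 u = g0 u' := congrArg Subtype.val h
    exact hsep u u' (by rw [h']) (by rw [h']) (by rw [h'])
  have hcardA : Nat.card (ZMod 3 × ZMod 2 × ZMod 2) = 12 := by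
    simp [Nat.card_prod, Nat.card_zmod]
  have hbij : Function.Bijective g1 := hinj.bijective_of_nat_card_le (by rw [hcardA]; exact h12)
  have hsurj : ∀ z, z ∈ Z → ∃ u, g0 u = z := by
    intro z hz
    obtain ⟨u, hu⟩ := hbij.2 ⟨z, hz⟩
    exact ⟨u, congrArg Subtype.val hu⟩
  have hg00 : g0 0 = 1 := by
    simp [g0]
  have hone : ∀ z, z ∈ Z → p1 z = 1 → p2 z = 1 → p3 z = 1 → z = 1 := by
    intro z hz h1 h2 h3
    obtain ⟨u, rfl⟩ := hsurj z hz
    rw [hsep u 0 (by rw [h1, hg00, map_one]) (by rw [h2, hg00, map_one]) (by rw [h3, hg00, map_one]), hg00]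
  have hcen : ∀ z, z ∈ Z → ∀ x, z * x = x * z := by
    intro z hz x
    obtain ⟨u, rfl⟩ := hsurj z hz
    have hk : g0 u * x * (g0 u)⁻¹ * x⁻¹ = 1 := by
      refine hone _ ?_ ?_ ?_ ?_
      · have e : g0 u * x * (g0 u)⁻¹ * x⁻¹ = g0 u * (x * (g0 u)⁻¹ * x⁻¹) := by group
        rw [e]
        exact Z.mul_mem (hg0 u) (hZ.conj_mem _ (Z.inv_mem (hg0 u)) x)
      · rw [map_mul, map_mul, map_mul, map_inv, map_inv, p1g,
          (Commute.pow_left (show Commute A1 (p1 x) from c1 x) u.1.val).eq]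
        group
      · rw [map_mul, map_mul, map_mul, map_inv, map_inv, p2g,
          (Commute.pow_left (show Commute A2 (p2 x) from c2 x) u.2.1.val).eq]
        group
      · rw [map_mul, map_mul, map_mul, map_inv, map_inv, p3g,
          (Commute.pow_left (show Commute A3 (p3 x) from c3 x) u.2.2.val).eq]
        group
    have h8 : g0 u * x * (g0 u)⁻¹ = x := mul_inv_eq_one.1 hk
    exact mul_inv_eq_iff_eq_mul.1 h8
  have ha3 : a ^ 3 = 1 := hone _ (Z.pow_mem ha _) (by rw [map_pow, h1a, ← o1, pow_orderOf_eq_one])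
    (by rw [map_pow, h2a, one_pow]) (by rw [map_pow, h3a, one_pow])
  have hb2 : b ^ 2 = 1 := hone _ (Z.pow_mem hb _) (by rw [map_pow, h1b, one_pow])
    (by rw [map_pow, h2b, ← o2, pow_orderOf_eq_one]) (by rw [map_pow, h3b, one_pow])
  have hc2 : c ^ 2 = 1 := hone _ (Z.pow_mem hc _) (by rw [map_pow, h1c, one_pow]) (by rw [map_pow, h2c, one_pow])
    (by rw [map_pow, h3c, ← o3, pow_orderOf_eq_one])
  have gadd : ∀ u u', g0 (u + u') = g0 u * g0 u' := by
    rintro ⟨i, j, k⟩ ⟨i', j', k'⟩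
    show a ^ (i + i').val * b ^ (j + j').val * c ^ (k + k').val =
      (a ^ i.val * b ^ j.val * c ^ k.val) * (a ^ i'.val * b ^ j'.val * c ^ k'.val)
    rw [ZMod.val_add, ZMod.val_add, ZMod.val_add, ← pow_eq_pow_mod _ ha3, ← pow_eq_pow_mod _ hb2,
      ← pow_eq_pow_mod _ hc2, pow_add, pow_add, pow_add]
    have h1 : Commute (c ^ k.val) (a ^ i'.val * b ^ j'.val) := hcen _ (Z.pow_mem hc _) _
    have h2 : Commute (b ^ j.val) (a ^ i'.val) := hcen _ (Z.pow_mem hb _) _
    rw [h1.mul_mul_mul_comm, h2.mul_mul_mul_comm]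
  refine ⟨?_, ?_⟩
  · intro z hz
    rw [Subgroup.mem_center_iff]
    intro g
    exact (hcen z hz g).symm
  · let f : Multiplicative (ZMod 3 × ZMod 2 × ZMod 2) →* Z := MonoidHom.mk' (fun m => g1 (Multiplicative.toAdd m))
      (by
        intro m m'
        apply Subtype.ext
        exact gadd _ _)
    refine ⟨MulEquiv.ofBijective f ⟨?_, ?_⟩⟩
    · intro m m' h
      exact Multiplicative.toAdd.injective (hinj h)
    · intro z
      obtain ⟨u, hu⟩ := hbij.2 z
      exact ⟨Multiplicative.ofAdd u, hu⟩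

/-- A stem extension which maps through a homomorphism with central kernel: the homomorphism is onto. -/
theorem surj_of_stem {Γ Q W : Type*} [Group Γ] [Group Q] [Group W] (σ : Γ →* Q) (hσ : IsStemExtension σ)
    (φ : W →* Γ) (hφ : Function.Surjective (σ.comp φ)) : Function.Surjective φ := by
  obtain ⟨-, hcen, hcom⟩ := hσ
  have hdec : ∀ g : Γ, ∃ u k, k ∈ σ.ker ∧ g = φ u * k := by
    intro g
    obtain ⟨u, hu⟩ := hφ (σ g)
    refine ⟨u, (φ u)⁻¹ * g, ?_, by group⟩
    rw [MonoidHom.mem_ker, map_mul, map_inv]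
    have : σ (φ u) = σ g := hu
    rw [this, inv_mul_cancel]
  have hle : commutator Γ ≤ φ.range := by
    rw [_root_.commutator, Subgroup.commutator_le]
    intro x _ y _
    obtain ⟨u, k, hk, rfl⟩ := hdec x
    obtain ⟨u', k', hk', rfl⟩ := hdec y
    have hk1 := Subgroup.mem_center_iff.1 (hcen hk)
    have hk2 := Subgroup.mem_center_iff.1 (hcen hk')
    have e : ⁅φ u * k, φ u' * k'⁆ = φ (⁅u, u'⁆) := by
      rw [commutatorElement_def, commutatorElement_def, map_mul, map_mul, map_mul, map_inv, map_inv]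
      have e1 : (φ u * k)⁻¹ = (φ u)⁻¹ * k⁻¹ := by
        rw [_root_.mul_inv_rev, ← (Subgroup.mem_center_iff.1 (Subgroup.inv_mem _ (hcen hk))) (φ u)⁻¹]
      have e2 : (φ u' * k')⁻¹ = (φ u')⁻¹ * k'⁻¹ := by
        rw [_root_.mul_inv_rev, ← (Subgroup.mem_center_iff.1 (Subgroup.inv_mem _ (hcen hk'))) (φ u')⁻¹]
      rw [e1, e2]
      have hk1' := Subgroup.mem_center_iff.1 (Subgroup.inv_mem _ (hcen hk))
      have hk2' := Subgroup.mem_center_iff.1 (Subgroup.inv_mem _ (hcen hk'))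
      calc φ u * k * (φ u' * k') * ((φ u)⁻¹ * k⁻¹) * ((φ u')⁻¹ * k'⁻¹)
          = φ u * (k * φ u') * k' * (φ u)⁻¹ * k⁻¹ * (φ u')⁻¹ * k'⁻¹ := by group
        _ = φ u * φ u' * (k * k') * (φ u)⁻¹ * k⁻¹ * (φ u')⁻¹ * k'⁻¹ := by rw [← hk1]; group
        _ = φ u * φ u' * ((k * k') * (φ u)⁻¹) * k⁻¹ * (φ u')⁻¹ * k'⁻¹ := by group
        _ = φ u * φ u' * (φ u)⁻¹ * (k * k') * k⁻¹ * (φ u')⁻¹ * k'⁻¹ := by
            rw [← (Subgroup.mem_center_iff.1 (Subgroup.mul_mem _ (hcen hk) (hcen hk'))) (φ u)⁻¹]; group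
        _ = φ u * φ u' * (φ u)⁻¹ * k' * (k * k⁻¹) * (φ u')⁻¹ * k'⁻¹ := by rw [hk2 k]; group
        _ = φ u * φ u' * (φ u)⁻¹ * (k' * (φ u')⁻¹) * k'⁻¹ := by group
        _ = φ u * φ u' * (φ u)⁻¹ * ((φ u')⁻¹ * k') * k'⁻¹ := by rw [hk2 (φ u')⁻¹]
        _ = _ := by group
    rw [e]
    exact ⟨_, rfl⟩
  intro g
  obtain ⟨u, k, hk, rfl⟩ := hdec g
  obtain ⟨u', hu'⟩ := hle (hcom hk)
  exact ⟨u * u', by rw [map_mul, hu']⟩

end generic

/-! ## The words -/

/-- A word for the scalar of order three. -/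
def R37 : List Nat := [1,2,3,6,5,1,2,7,3,6,5,1,2,7,6,3,7,5,6,1,2,3,7,5]

/-- A word for the central involution of the first double cover. -/
def VA : List Nat := vT.getD 0 []

/-- A word for the central involution of the second double cover. -/
def R39 : List Nat := [2,1,7,5,4,3,2,1,7,5,4,3,2,1,7,5,4,3,2,1,7,5,4,3,2,1,7,5,4,3]

/-- The words of the letters under an automorphism of order three. -/
def Ytw (c : Nat) : List Nat :=
  ([[6, 4, 1, 2, 3, 7, 6, 5, 4, 3, 2, 1, 0, 1, 2, 3, 4, 5, 6, 7, 3, 2, 1, 4, 6],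
    [7, 3, 4, 2, 3, 7, 6, 5, 2, 1, 2, 5, 6, 7, 3, 2, 4, 3, 7],
    [7, 3, 4, 1, 2, 3, 7, 6, 5, 1, 0, 1, 5, 6, 7, 3, 2, 1, 4, 3, 7],
    [1, 2, 3, 7, 5, 6, 2, 1, 5, 4, 3, 2, 1, 0, 1, 2, 3, 4, 5, 1, 2, 6, 5, 7, 3, 2, 1],
    [6, 1, 2, 3, 7, 6, 1, 5, 4, 3, 2, 1, 0, 1, 2, 3, 4, 5, 1, 6, 7, 3, 2, 1, 6],
    [3, 2, 1, 5, 6, 3, 7, 5, 4, 3, 2, 1, 0, 1, 2, 3, 4, 5, 7, 3, 6, 5, 1, 2, 3],
    [3, 7, 1, 5, 6, 3, 2, 1, 5, 4, 3, 2, 1, 0, 1, 2, 3, 4, 5, 1, 2, 3, 6, 5, 1, 7, 3],
    [5, 6, 1, 2, 3, 7, 6, 5, 4, 3, 2, 1, 0, 1, 2, 3, 4, 5, 6, 7, 3, 2, 1, 6, 5]] : List (List Nat)).getD c []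

theorem Ytw_lt : ∀ c, c < 8 → ∀ z ∈ Ytw c, z < 8 := by decide +kernel

theorem words_lt : (∀ z ∈ R37, z < 8) ∧ (∀ z ∈ VA, z < 8) ∧ (∀ z ∈ R39, z < 8) := by decide +kernel

/-! ## The map to the unitary group -/

theorem chk1 : ∀ l ∈ relsU, RW l = 1 := by decide +kernel

theorem chk1v : RW R37 = K4.w • (1 : M6) ∧ RW R37 ≠ 1 ∧ RW (R37 ++ R37 ++ R37) = 1 ∧ RW VA = 1 ∧ RW R39 = 1 := by
  decide +kernel

theorem gS_one {l : List Nat} (hl : ∀ z ∈ l, z < 8) (h : RW l = 1) : prodA gS l = 1 :=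
  Subtype.ext (Subtype.ext ((prodA_gS l hl).trans h))

theorem exists_pr1 : ∃ φ : U →* SU6, ∀ c, c < 8 → φ (xU c) = gS c :=
  exists_hom gS fun l hl => gS_one (hk l hl) (chk1 l hl)

/-- The map to the unitary group. -/
noncomputable def pr1 : U →* SU6 := exists_pr1.choose

theorem pr1_x : ∀ c, c < 8 → pr1 (xU c) = gS c := exists_pr1.choose_spec

/-- The map to the simple group. -/
noncomputable def psiU : U →* T := (QuotientGroup.mk' (Subgroup.center SU6)).comp pr1

theorem psiU_x {c : Nat} (hc : c < 8) : psiU (xU c) = t c := by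
  show (QuotientGroup.mk (pr1 (xU c)) : T) = _
  rw [pr1_x c hc]
  rfl

theorem psiU_surj : Function.Surjective psiU := by
  obtain ⟨ψ, hψ0⟩ := exists_psi
  have hs := surj ψ hψ0
  rw [← MonoidHom.range_eq_top] at hs ⊢
  rw [eq_top_iff, ← hs, MonoidHom.range_eq_map, ← Cols.closure_E Cfsg.Agent.Lib.TC.D.Fi22U.Rels.hv,
    MonoidHom.map_closure, Subgroup.closure_le]
  rintro _ ⟨_, ⟨c, hc, rfl⟩, rfl⟩
  rw [hψ0 c hc]
  exact ⟨xU c, psiU_x hc⟩

/-! ## The maps to `Fi₂₂` -/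

/-- The word of a letter, twisted by the central involution (the word of the line has odd length). -/
def wdT (c : Nat) : List Nat := wd c ++ [0]

/-- The letters of the second map. -/
noncomputable def F2 : Nat → PresentedGroup Rel := fun c => prodA E (wdT c)

/-- The letters of the third map. -/
noncomputable def F3 : Nat → PresentedGroup Rel := fun c => prodA F2 (Ytw c)

theorem prodA_F2 (l : List Nat) : prodA F2 l = prodA E (l.flatMap wdT) :=
  (Cfsg.Agent.Lib.TC.SubPres.prodA_flatMap E wdT l).symm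

theorem prodA_F3 (l : List Nat) : prodA F3 l = prodA E ((l.flatMap Ytw).flatMap wdT) := by
  rw [← prodA_F2]
  exact (Cfsg.Agent.Lib.TC.SubPres.prodA_flatMap F2 Ytw l).symm

/-- The words to check in `Fi₂₂`. -/
def fixW (w : List Nat) : Prop :=
  (∀ z ∈ w, z < K.k) ∧ fixAll pt (allBase [0] Cfsg.Agent.Lib.TC.D.Fi22Chain.Lev.levels) w = true

noncomputable instance (w : List Nat) : Decidable (fixW w) := by
  unfold fixW
  infer_instance

theorem one_of_fixW {w : List Nat} (h : fixW w) : prodA E w = 1 := one_of_fix w h.1 h.2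

theorem chk2 : ∀ l ∈ relsU, fixW (l.flatMap wdT) := by decide +kernel

theorem chk3 : ∀ l ∈ relsU, fixW ((l.flatMap Ytw).flatMap wdT) := by decide +kernel

theorem chk2v : fixW (R37.flatMap wdT) ∧ fixW ((VA.flatMap wdT) ++ [0]) ∧ fixW (R39.flatMap wdT) := by decide +kernel

theorem chk3v : fixW ((R37.flatMap Ytw).flatMap wdT) ∧ fixW ((VA.flatMap Ytw).flatMap wdT) ∧
    fixW (((R39.flatMap Ytw).flatMap wdT) ++ [0]) := by decide +kernel

theorem exists_pr2 : ∃ φ : U →* PresentedGroup Rel, ∀ c, c < 8 → φ (xU c) = F2 c :=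
  exists_hom F2 fun l hl => by
    rw [prodA_F2]
    exact one_of_fixW (chk2 l hl)

theorem exists_pr3 : ∃ φ : U →* PresentedGroup Rel, ∀ c, c < 8 → φ (xU c) = F3 c :=
  exists_hom F3 fun l hl => by
    rw [prodA_F3]
    exact one_of_fixW (chk3 l hl)

/-- The second map. -/
noncomputable def pr2 : U →* PresentedGroup Rel := exists_pr2.choose

theorem pr2_x : ∀ c, c < 8 → pr2 (xU c) = F2 c := exists_pr2.choose_spec

/-- The third map. -/
noncomputable def pr3 : U →* PresentedGroup Rel := exists_pr3.choose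

theorem pr3_x : ∀ c, c < 8 → pr3 (xU c) = F3 c := exists_pr3.choose_spec

theorem pr2_E0 (u : U) : E 0 * pr2 u = pr2 u * E 0 := by
  have hle : subOf K Rel subs ≤ Subgroup.centralizer {E 0} := by
    refine (Subgroup.closure_le _).2 ?_
    rintro _ ⟨s, hs, rfl⟩
    rw [SetLike.mem_coe, Subgroup.mem_centralizer_iff]
    rintro _ rfl
    exact a_comm s hs
  have h : (Subgroup.centralizer ({E 0} : Set (PresentedGroup Rel))).comap pr2 = ⊤ := by
    apply mem_of_letters
    intro c hc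
    rw [Subgroup.mem_comap, pr2_x c hc]
    show prodA E (wd c ++ [0]) ∈ _
    rw [prodA_append]
    refine Subgroup.mul_mem _ ?_ (hle (hin c hc))
    rw [Subgroup.mem_centralizer_iff]
    rintro _ rfl
    simp
  have h2 : u ∈ (Subgroup.centralizer ({E 0} : Set (PresentedGroup Rel))).comap pr2 := by
    rw [h]
    trivial
  rw [Subgroup.mem_comap, Subgroup.mem_centralizer_iff] at h2
  exact h2 _ rfl

theorem pr3_E0 (u : U) : E 0 * pr3 u = pr3 u * E 0 := by
  have h : (Subgroup.centralizer ({E 0} : Set (PresentedGroup Rel))).comap pr3 = ⊤ := by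
    apply mem_of_letters
    intro c hc
    rw [Subgroup.mem_comap, pr3_x c hc, Subgroup.mem_centralizer_iff]
    rintro _ rfl
    have e : F3 c = pr2 (prodA xU (Ytw c)) := (map_prodA pr2 xU F2 8 pr2_x _ (Ytw_lt c hc)).symm
    rw [e]
    exact pr2_E0 _
  have h2 : u ∈ (Subgroup.centralizer ({E 0} : Set (PresentedGroup Rel))).comap pr3 := by
    rw [h]
    trivial
  rw [Subgroup.mem_comap, Subgroup.mem_centralizer_iff] at h2
  exact h2 _ rfl

theorem E0_order : orderOf (E 0) = 2 := by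
  have : Fact (Nat.Prime 2) := ⟨Nat.prime_two⟩
  apply orderOf_eq_prime
  · rw [pow_two]
    exact hE 0 (by decide)
  · exact a_ne

/-! ## The kernel -/

/-- The kernel has at most twelve elements. -/
theorem ker_card : Nat.card psiU.ker ≠ 0 ∧ Nat.card psiU.ker ≤ 12 := by
  obtain ⟨h0, hb⟩ := Bound.bound
  have h1 := Subgroup.card_mul_index psiU.ker
  rw [Subgroup.index_ker, MonoidHom.range_eq_top.2 psiU_surj, Subgroup.card_top, card_T] at h1
  constructor
  · intro h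
    rw [h, zero_mul] at h1
    exact h0 h1.symm
  · rw [← h1] at hb
    have h2 : Nat.card psiU.ker * 9196830720 ≤ 12 * 9196830720 := hb.trans (by norm_num)
    exact Nat.le_of_mul_le_mul_right h2 (by norm_num)

/-- The kernel. -/
theorem ker_main : psiU.ker ≤ Subgroup.center U ∧ Nonempty (Multiplicative (ZMod 3 × ZMod 2 × ZMod 2) ≃* psiU.ker) := by
  obtain ⟨h37, hne, h3, hVA, h39⟩ := chk1v
  obtain ⟨l37, lVA, l39⟩ := words_lt
  have e1 : ∀ l : List Nat, (∀ z ∈ l, z < 8) → pr1 (prodA xU l) = prodA gS l := fun l hl =>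
    map_prodA pr1 xU gS 8 pr1_x l hl
  have e2 : ∀ l : List Nat, (∀ z ∈ l, z < 8) → pr2 (prodA xU l) = prodA E (l.flatMap wdT) := fun l hl =>
    (map_prodA pr2 xU F2 8 pr2_x l hl).trans (prodA_F2 l)
  have e3 : ∀ l : List Nat, (∀ z ∈ l, z < 8) → pr3 (prodA xU l) = prodA E ((l.flatMap Ytw).flatMap wdT) := fun l hl =>
    (map_prodA pr3 xU F3 8 pr3_x l hl).trans (prodA_F3 l)
  have hA1c : prodA gS R37 ∈ Subgroup.center SU6 := by
    apply mem_center_of_scal
    rw [prodA_gS _ l37, h37]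
    exact Or.inr (Or.inl rfl)
  have hker : ∀ l : List Nat, (∀ z ∈ l, z < 8) → prodA gS l ∈ Subgroup.center SU6 → prodA xU l ∈ psiU.ker := by
    intro l hl h
    rw [MonoidHom.mem_ker]
    show (QuotientGroup.mk (pr1 (prodA xU l)) : T) = 1
    rw [e1 l hl]
    exact (QuotientGroup.eq_one_iff _).2 h
  have h1VA := gS_one lVA hVA
  have h139 := gS_one l39 h39
  have hv2 := chk2v
  have hv3 := chk3v
  have hVAE : prodA E (VA.flatMap wdT) = E 0 := by
    have h := Cfsg.Agent.Lib.TC.SubPres.eq_of_word_one E K.k hE _ [0] (by simp; decide) (one_of_fixW hv2.2.1)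
    rw [h]
    simp
  have h39E : prodA E ((R39.flatMap Ytw).flatMap wdT) = E 0 := by
    have h := Cfsg.Agent.Lib.TC.SubPres.eq_of_word_one E K.k hE _ [0] (by simp; decide) (one_of_fixW hv3.2.2)
    rw [h]
    simp
  have hA1o : orderOf (prodA gS R37) = 3 := by
    have : Fact (Nat.Prime 3) := ⟨Nat.prime_three⟩
    apply orderOf_eq_prime
    · have h := gS_one (l := R37 ++ R37 ++ R37) (by decide +kernel) h3
      rw [prodA_append, prodA_append] at h
      rw [pow_succ, pow_two, ← mul_assoc] at *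
      exact h
    · intro h
      apply hne
      rw [← prodA_gS _ l37, h]
      rfl
  refine equiv_of_three psiU.ker pr1 pr2 pr3 (a := prodA xU R37) (b := prodA xU VA) (c := prodA xU R39)
    (A1 := prodA gS R37) (A2 := E 0) (A3 := E 0)
    (hker _ l37 hA1c) (hker _ lVA (by rw [h1VA]; exact one_mem _)) (hker _ l39 (by rw [h139]; exact one_mem _))
    ker_card.1 ker_card.2 (e1 _ l37) ((e1 _ lVA).trans h1VA) ((e1 _ l39).trans h139)
    ((e2 _ l37).trans (one_of_fixW hv2.1)) ((e2 _ lVA).trans hVAE) ((e2 _ l39).trans (one_of_fixW hv2.2.2))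
    ((e3 _ l37).trans (one_of_fixW hv3.1)) ((e3 _ lVA).trans (one_of_fixW hv3.2.1)) ((e3 _ l39).trans h39E)
    hA1o E0_order E0_order ?_ pr2_E0 pr3_E0
  intro u
  exact (Subgroup.mem_center_iff.1 hA1c (pr1 u)).symm

/-! ## The group is perfect -/

theorem U_perfect : commutator U = ⊤ := by
  obtain ⟨q, hq0⟩ : ∃ q : U →* Abelianization U, q = Abelianization.of := ⟨_, rfl⟩
  have hq : ∀ c, c < 8 → q (xU c) * q (xU c) = 1 := by
    intro c hc
    have h := hrel0 _ (hsq c hc)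
    have h2 := congrArg q h
    simpa using h2
  have hedge : ∀ c p, c < 8 → p < 8 → [c, p, c, p, c, p] ∈ relsU → q (xU c) = q (xU p) := by
    intro c p hc hp hm
    have h := congrArg q (hrel0 _ hm)
    simp only [prodA_cons, prodA_nil, one_mul, map_mul, map_one] at h
    have hA := hq c hc
    have hB := hq p hp
    generalize q (xU c) = A at h hA ⊢
    generalize q (xU p) = B at h hB ⊢
    have e : B * A * B * A * B * A = (B * B) * (A * A) * (B * A) := by
      simp only [mul_comm, mul_left_comm, mul_assoc]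
    rw [e, hA, hB, one_mul, one_mul] at h
    have e2 : A = B⁻¹ := eq_inv_of_mul_eq_one_right h
    rw [e2]
    exact inv_eq_of_mul_eq_one_left hB
  have e1 := hedge 1 0 (by decide) (by decide) (by decide +kernel)
  have e2 := hedge 2 1 (by decide) (by decide) (by decide +kernel)
  have e3 := hedge 3 2 (by decide) (by decide) (by decide +kernel)
  have e4 := hedge 4 3 (by decide) (by decide) (by decide +kernel)
  have e5 := hedge 5 1 (by decide) (by decide) (by decide +kernel)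
  have e6 := hedge 6 5 (by decide) (by decide) (by decide +kernel)
  have e7 := hedge 7 3 (by decide) (by decide) (by decide +kernel)
  have hall : ∀ c, c < 8 → q (xU c) = q (xU 0) := by
    intro c hc
    interval_cases c
    · rfl
    · exact e1
    · exact e2.trans e1
    · exact e3.trans (e2.trans e1)
    · exact e4.trans (e3.trans (e2.trans e1))
    · exact e5.trans e1
    · exact e6.trans (e5.trans e1)
    · exact e7.trans (e3.trans (e2.trans e1))
  have hw : ∀ l : List Nat, (∀ z ∈ l, z < 8) → q (prodA xU l) = q (xU 0) ^ l.length := by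
    intro l hl
    induction l with
    | nil => simp
    | cons z l ih =>
      rw [prodA_cons, map_mul, ih (fun y hy => hl y (by simp [hy])), hall z (hl z (by simp)), List.length_cons, pow_succ]
  have h65 : q (xU 0) ^ 65 = 1 := by
    have h := hw lineW Exists.line_lt
    rw [Exists.lineW_len, hrel0 _ (by decide +kernel), map_one] at h
    exact h.symm
  have h2 : q (xU 0) ^ 2 = 1 := by
    rw [pow_two]
    exact hq 0 (by decide)
  have h1 : q (xU 0) = 1 := by
    have e : q (xU 0) ^ 65 = (q (xU 0) ^ 2) ^ 32 * q (xU 0) := by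
      rw [← pow_mul, ← pow_succ]
    rw [e, h2, one_pow, one_mul] at h65
    exact h65
  apply mem_of_letters
  intro c hc
  have h3 : q (xU c) = 1 := by rw [hall c hc, h1]
  rw [← Abelianization.ker_of, MonoidHom.mem_ker, ← hq0]
  exact h3

/-- The stem extension. -/
theorem psiU_stem : IsStemExtension psiU := by
  refine ⟨psiU_surj, ker_main.1, ?_⟩
  rw [U_perfect]
  exact le_top

theorem finite_U : Finite U := Nat.finite_of_card_ne_zero Bound.bound.1

/-- The kernel of every stem extension is a quotient of the kernel of the presented group. -/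
theorem upper {Γ : Type*} [Group Γ] (σ : Γ →* T) (hσ : IsStemExtension σ) :
    ∃ π : Multiplicative (ZMod 3 × ZMod 2 × ZMod 2) →* σ.ker, Function.Surjective π := by
  have hc : ∀ a, σ a = 1 → ∀ b, a * b = b * a := by
    intro a ha b
    exact (Subgroup.mem_center_iff.1 (hσ.2.1 ha) b).symm
  obtain ⟨x', hx1, hx2⟩ := exists_lifts hσ.1 hc
  obtain ⟨φ, hφ⟩ := exists_hom x' hx2
  have hσφ : ∀ u, σ (φ u) = psiU u := by
    have h : MonoidHom.eqLocus (σ.comp φ) psiU = ⊤ := by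
      apply mem_of_letters
      intro c hc
      show σ (φ (xU c)) = psiU (xU c)
      rw [hφ c hc, hx1 c hc, psiU_x hc]
    intro u
    have h2 : u ∈ MonoidHom.eqLocus (σ.comp φ) psiU := by
      rw [h]
      trivial
    exact h2
  have hφs : Function.Surjective φ := surj_of_stem σ hσ φ (by
    intro y
    obtain ⟨u, hu⟩ := psiU_surj y
    exact ⟨u, by rw [MonoidHom.comp_apply, hσφ, hu]⟩)
  obtain ⟨⟨f⟩⟩ : Nonempty (Nonempty (Multiplicative (ZMod 3 × ZMod 2 × ZMod 2) ≃* psiU.ker)) := ⟨ker_main.2⟩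
  let π0 : psiU.ker →* σ.ker := (φ.comp psiU.ker.subtype).codRestrict σ.ker (by
    rintro ⟨z, hz⟩
    rw [MonoidHom.mem_ker, MonoidHom.comp_apply]
    show σ (φ z) = 1
    rw [hσφ]
    exact hz)
  refine ⟨π0.comp f.toMonoidHom, ?_⟩
  rintro ⟨k, hk⟩
  obtain ⟨u, rfl⟩ := hφs k
  have hu : u ∈ psiU.ker := by
    rw [MonoidHom.mem_ker, ← hσφ]
    exact hk
  refine ⟨f.symm ⟨u, hu⟩, ?_⟩
  apply Subtype.ext
  simp [π0]

end Cfsg.Agent.Lib.Schur.U62.Model
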